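import Mathlib
import Cfsg.Agent.Lib.Helper48.Ami.TopDefs

/-!
# AMI package [CHARP]: in positive characteristic a finite subgroup of `Dˣ` is commutative.
-/

set_option autoImplicit false

namespace Cfsg.Agent.Lib.Helper76.Ami

open Cfsg.Agent.Lib.Helper48.AmiTop

universe u

theorem pkgCharP : PkgCharP.{u} := by
  intro D _ p _ _ H hfin a ha b hb
  letI : Algebra (ZMod p) D := ZMod.algebra D p
  -- the image of `H` in `D` as a submonoid
  let M : Submonoid D := (H.toSubmonoid).map (Units.coeHom D)
  have hMfin : (M : Set D).Finite := by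
    have h1 : (M : Set D) = Set.range (fun h : H => ((h : Dˣ) : D)) := by
      ext z
      constructor
      · rintro ⟨u, hu, rfl⟩
        exact ⟨⟨u, hu⟩, rfl⟩
      · rintro ⟨⟨u, hu⟩, rfl⟩
        exact ⟨u, hu, rfl⟩
    rw [h1]
    exact Set.finite_range _
  let K : Subalgebra (ZMod p) D := Algebra.adjoin (ZMod p) (M : Set D)
  have hKspan : Subalgebra.toSubmodule K = Submodule.span (ZMod p) (M : Set D) := by
    have := Algebra.adjoin_eq_span (R := ZMod p) (M : Set D)
    rw [Submonoid.closure_eq] at this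
    exact this
  haveI : Module.Finite (ZMod p) (Subalgebra.toSubmodule K) := by
    rw [hKspan]
    exact Module.Finite.span_of_finite (ZMod p) hMfin
  haveI : Finite (Subalgebra.toSubmodule K) := Module.finite_of_finite (ZMod p)
  haveI : Finite K := ‹Finite (Subalgebra.toSubmodule K)›
  have hfield : IsField K := Finite.isDomain_to_isField K
  have haK : ((a : Dˣ) : D) ∈ K := Algebra.subset_adjoin ⟨a, ha, rfl⟩
  have hbK : ((b : Dˣ) : D) ∈ K := Algebra.subset_adjoin ⟨b, hb, rfl⟩
  have hcomm := hfield.mul_comm ⟨(a : D), haK⟩ ⟨(b : D), hbK⟩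
  apply Units.ext
  rw [Units.val_mul, Units.val_mul]
  exact congrArg Subtype.val hcomm

end Cfsg.Agent.Lib.Helper76.Ami
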