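import Mathlib
import Cfsg.Agent.Lib.Helper48.Ami.TopDefs

/-!
# AMI package [T2K1]
-/

set_option autoImplicit false

namespace Cfsg.Agent.Lib.Helper76.Ami

open Cfsg.Agent.Lib.Helper48.AmiTop

universe u

theorem pkgT2K1_of (hB : PkgMBasic) (h5 : PkgMF5) (h6 : PkgMF6) : PkgT2K1.{u} := by
  intro D _ _ H S e hn hsq g hgS hgx
  obtain ⟨hAA, hAX, _, _, hm1, hm11, _, _⟩ := hB
  -- the three elements of `S`
  set x : ↥S := e.symm mX with hx
  set a : ↥S := e.symm mA with ha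
  set z : ↥S := e.symm (-1) with hz
  have haa : a * a = z := by rw [ha, hz, ← map_mul, hAA]
  have hax3 : (a⁻¹ * x) ^ 3 = z := by rw [ha, hx, hz, ← map_inv, ← map_mul, ← map_pow, hAX]
  have hzz : z * z = 1 := by rw [hz, ← map_mul, hm11, map_one]
  have hz1 : z ≠ 1 := fun h => hm1 (e.symm.injective (h.trans (map_one e.symm).symm))
  have hez : e z = -1 := e.apply_symm_apply _
  have hex : e x = mX := e.apply_symm_apply _
  have hea : e a = mA := e.apply_symm_apply _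
  -- the value in `D`
  let v : ↥H → D := fun h => ((h : Dˣ) : D)
  have hvmul : ∀ h k : ↥H, v (h * k) = v h * v k := fun h k => rfl
  have hvone : v 1 = 1 := rfl
  have hvinj : ∀ h k : ↥H, v h = v k → h = k := fun h k hhk => Subtype.ext (Units.ext hhk)
  have F1 : ∀ w : ↥H, w * w = 1 → w = 1 ∨ v w = -1 := by
    intro w hw
    have h1 : (v w - 1) * (v w + 1) = 0 := by
      have h2 : v w * v w = 1 := by rw [← hvmul, hw, hvone]
      calc (v w - 1) * (v w + 1) = v w * v w - 1 := by noncomm_ring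
        _ = 0 := by rw [h2, sub_self]
    rcases mul_eq_zero.mp h1 with h | h
    · left
      exact hvinj _ _ ((sub_eq_zero.mp h).trans hvone.symm)
    · right
      exact eq_neg_of_add_eq_zero_left h
  have hzH : (z : ↥H) * (z : ↥H) = 1 := by
    have := congrArg Subtype.val hzz
    exact this
  have hzv : v (z : ↥H) = -1 := by
    rcases F1 _ hzH with h | h
    · exact absurd (Subtype.ext h) hz1
    · exact h
  have hzc : ∀ h : ↥H, h * (z : ↥H) = (z : ↥H) * h := by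
    intro h
    apply hvinj
    rw [hvmul, hvmul, hzv, mul_neg, mul_one, neg_mul, one_mul]
  have haaH : (a : ↥H) * (a : ↥H) = (z : ↥H) := congrArg Subtype.val haa
  have hgx' : (x : ↥H) * g⁻¹ = g⁻¹ * (x : ↥H) := by
    have c1 : Commute g (x : ↥H) := hgx
    exact (c1.inv_left).eq.symm
  -- the conjugate of `a`
  have ha' : g * (a : ↥H) * g⁻¹ ∈ S := hn.conj_mem (a : ↥H) a.2 g
  set a' : ↥S := ⟨g * (a : ↥H) * g⁻¹, ha'⟩ with ha'def
  have ha'a' : a' * a' = z := by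
    apply Subtype.ext
    show g * (a : ↥H) * g⁻¹ * (g * (a : ↥H) * g⁻¹) = (z : ↥H)
    calc g * (a : ↥H) * g⁻¹ * (g * (a : ↥H) * g⁻¹) = g * ((a : ↥H) * (a : ↥H)) * g⁻¹ := by group
      _ = g * (z : ↥H) * g⁻¹ := by rw [haaH]
      _ = (z : ↥H) := by rw [hzc g, mul_assoc, mul_inv_cancel, mul_one]
  have hNN : e a' * e a' = (-1 : SL25) := by rw [← map_mul, ha'a', hez]
  have ha'x : (a'⁻¹ * x) ^ 3 = z := by
    apply Subtype.ext
    show ((g * (a : ↥H) * g⁻¹)⁻¹ * (x : ↥H)) ^ 3 = (z : ↥H)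
    have h1 : (g * (a : ↥H) * g⁻¹)⁻¹ * (x : ↥H) = g * ((a : ↥H)⁻¹ * (x : ↥H)) * g⁻¹ := by
      calc (g * (a : ↥H) * g⁻¹)⁻¹ * (x : ↥H) = g * (a : ↥H)⁻¹ * (g⁻¹ * (x : ↥H)) := by group
        _ = g * (a : ↥H)⁻¹ * ((x : ↥H) * g⁻¹) := by rw [hgx']
        _ = g * ((a : ↥H)⁻¹ * (x : ↥H)) * g⁻¹ := by group
    have h2 : ((a : ↥H)⁻¹ * (x : ↥H)) ^ 3 = (z : ↥H) := congrArg Subtype.val hax3
    rw [h1, conj_pow, h2, hzc g, mul_assoc, mul_inv_cancel, mul_one]
  have hNX : ((e a')⁻¹ * mX) ^ 3 = (-1 : SL25) := by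
    rw [← hex, ← map_inv, ← map_mul, ← map_pow, ha'x, hez]
  obtain ⟨m, hm⟩ := h5 (e a') hNN hNX
  have ha'eq : a' = x ^ m * a * (x ^ m)⁻¹ := by
    apply e.injective
    rw [hm, map_mul, map_mul, map_inv, map_pow, hex, hea]
  have hconj : g * (a : ↥H) * g⁻¹ = (x : ↥H) ^ m * (a : ↥H) * ((x : ↥H) ^ m)⁻¹ :=
    congrArg Subtype.val ha'eq
  -- `g3`
  set g3 : ↥H := ((x : ↥H) ^ m)⁻¹ * g with hg3
  have hxmS : (x : ↥H) ^ m ∈ S := S.pow_mem x.2 m
  have hg3S : g3 ∉ S := by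
    intro h
    apply hgS
    have : g = (x : ↥H) ^ m * g3 := by rw [hg3]; group
    rw [this]
    exact S.mul_mem hxmS h
  have hg3x : Commute g3 (x : ↥H) := by
    have c1 : Commute g (x : ↥H) := hgx
    have c2 : Commute (((x : ↥H) ^ m)⁻¹) (x : ↥H) := ((Commute.refl (x : ↥H)).pow_left m).inv_left
    exact c2.mul_left c1
  have hg3a : Commute g3 (a : ↥H) := by
    show g3 * (a : ↥H) = (a : ↥H) * g3
    calc g3 * (a : ↥H) = ((x : ↥H) ^ m)⁻¹ * (g * (a : ↥H) * g⁻¹) * g := by rw [hg3]; group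
      _ = ((x : ↥H) ^ m)⁻¹ * ((x : ↥H) ^ m * (a : ↥H) * ((x : ↥H) ^ m)⁻¹) * g := by rw [hconj]
      _ = (a : ↥H) * g3 := by rw [hg3]; group
  have hqS : g3 * g3 ∈ S := hsq g3
  set q : ↥S := ⟨g3 * g3, hqS⟩ with hq
  have hqa : q * a = a * q := by
    apply Subtype.ext
    show g3 * g3 * (a : ↥H) = (a : ↥H) * (g3 * g3)
    exact ((hg3a.mul_left hg3a)).eq
  have hqx : q * x = x * q := by
    apply Subtype.ext
    show g3 * g3 * (x : ↥H) = (x : ↥H) * (g3 * g3)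
    exact ((hg3x.mul_left hg3x)).eq
  have hMA : e q * mA = mA * e q := by rw [← hea, ← map_mul, ← map_mul, hqa]
  have hMX : e q * mX = mX * e q := by rw [← hex, ← map_mul, ← map_mul, hqx]
  rcases h6 (e q) hMA hMX with h | h
  · -- `g3 * g3 = 1`
    have hq1 : q = 1 := e.injective (h.trans (map_one e).symm)
    have hg31 : g3 * g3 = 1 := congrArg Subtype.val hq1
    rcases F1 g3 hg31 with h' | h'
    · exact hg3S (h' ▸ S.one_mem)
    · have : g3 = (z : ↥H) := hvinj _ _ (h'.trans hzv.symm)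
      exact hg3S (this ▸ z.2)
  · -- `g3 * g3 = z`
    have hqz : q = z := e.injective (h.trans hez.symm)
    have hg3z : g3 * g3 = (z : ↥H) := congrArg Subtype.val hqz
    have hw : (g3 * (a : ↥H)) * (g3 * (a : ↥H)) = 1 := by
      calc (g3 * (a : ↥H)) * (g3 * (a : ↥H)) = g3 * ((a : ↥H) * g3) * (a : ↥H) := by group
        _ = g3 * (g3 * (a : ↥H)) * (a : ↥H) := by rw [hg3a.eq]
        _ = (g3 * g3) * ((a : ↥H) * (a : ↥H)) := by group
        _ = 1 := by rw [hg3z, haaH, hzH]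
    rcases F1 _ hw with h' | h'
    · have : g3 = (a : ↥H)⁻¹ := eq_inv_of_mul_eq_one_left h'
      exact hg3S (this ▸ S.inv_mem a.2)
    · have h3 : g3 * (a : ↥H) = (z : ↥H) := hvinj _ _ (h'.trans hzv.symm)
      have : g3 = (z : ↥H) * (a : ↥H)⁻¹ := eq_mul_inv_of_mul_eq h3
      exact hg3S (this ▸ S.mul_mem z.2 (S.inv_mem a.2))

end Cfsg.Agent.Lib.Helper76.Ami
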